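import Mathlib
import Cfsg.Agent.Lib.Helper4.FXSP.Defs
import Cfsg.Agent.Lib.Helper40.Symp
import Cfsg.Agent.Lib.Helper94.Symp

/-!
# FXSP packages [KXM] and [KXP]
-/

set_option autoImplicit false
open scoped MatrixGroups Matrix

namespace Cfsg.Agent.Lib.Helper88.FXSP

open Cfsg.Agent.Lib.Helper4.FXSP

universe u

section
variable {F : Type u} [Field F]

/-- `diag(1, a)` -/
def dM (a : F) : Matrix (Fin 2) (Fin 2) F := !![1, 0; 0, a]
/-- the Gram matrix of the adapted basis -/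
def gramM (a : F) : Md 2 F := Matrix.fromBlocks 0 (dM a) (-dM a) 0
/-- its inverse -/
def gramInv (a : F) : Md 2 F := Matrix.fromBlocks 0 (-dM a⁻¹) (dM a⁻¹) 0
/-- the matrix of `α` on `⟨v, α v⟩` -/
def aM (a : F) : Matrix (Fin 2) (Fin 2) F := !![0, a; 1, 0]
/-- the matrix of `α` in the adapted basis -/
def alphaM (a : F) : Md 2 F := Matrix.fromBlocks (aM a) 0 0 (aM a)

theorem gramInv_mul (a : F) (ha : a ≠ 0) : gramInv a * gramM a = 1 := by
  unfold gramInv gramM
  rw [Matrix.fromBlocks_multiply]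
  have h : dM a⁻¹ * dM a = 1 := by
    ext i j; fin_cases i <;> fin_cases j <;> simp [dM, Matrix.mul_apply, Fin.sum_univ_two, ha]
  simp [h, Matrix.fromBlocks_one]

theorem kx_alpha (K : Subalgebra F (Md 2 F)) (hK : Cfsg.Geo.IsFieldSubalgebra 2 K)
    (h2 : (2 : F) ≠ 0) :
    ∃ α ∈ K, ∃ a : F, a ≠ 0 ∧ α * α = a • (1 : Md 2 F) ∧ (∀ c : F, α ≠ c • (1 : Md 2 F)) ∧
      ∀ k ∈ K, ∃ c d : F, k = c • (1 : Md 2 F) + d • α := by
  have hβ : ∃ β ∈ K, ∀ c : F, β ≠ c • (1 : Md 2 F) := by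
    by_contra! hcon
    have hbot : K = ⊥ := by
      rw [eq_bot_iff]
      intro β hβ
      obtain ⟨c, hc⟩ := hcon β hβ
      rw [Algebra.mem_bot]
      exact ⟨c, by rw [hc, Algebra.algebraMap_eq_smul_one]⟩
    have := hK.finrank_eq
    rw [hbot, Subalgebra.finrank_bot] at this
    omega
  obtain ⟨β, hβK, hβ⟩ := hβ
  have hli : LinearIndependent F ![(1 : Md 2 F), β] := by
    rw [LinearIndependent.pair_iff]
    intro s t hst
    have ht : t = 0 := by
      by_contra ht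
      apply hβ (-(s / t))
      have h1 : t • β = -(s • (1 : Md 2 F)) := by
        rw [eq_neg_iff_add_eq_zero, add_comm]; exact hst
      calc β = t⁻¹ • (t • β) := by rw [smul_smul, inv_mul_cancel₀ ht, one_smul]
        _ = -(s / t) • (1 : Md 2 F) := by
            rw [h1, smul_neg, smul_smul, neg_smul]; congr 2; field_simp
    subst ht
    refine ⟨?_, rfl⟩
    simpa using hst
  have hspan : Submodule.span F {(1 : Md 2 F), β} = Subalgebra.toSubmodule K := by
    apply Submodule.eq_of_le_of_finrank_eq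
    · rw [Submodule.span_le]
      intro x hx
      rcases hx with rfl | rfl
      · exact K.one_mem
      · exact hβK
    · have h1 : Module.finrank F (Submodule.span F (Set.range ![(1 : Md 2 F), β])) = 2 := by
        rw [finrank_span_eq_card hli]; simp
      have h2' : Set.range ![(1 : Md 2 F), β] = {1, β} := by
        ext x; simp [Matrix.range_cons, Matrix.range_empty, eq_comm, or_comm]
      rw [h2'] at h1
      rw [h1, Subalgebra.finrank_toSubmodule, hK.finrank_eq]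
  have hmem : ∀ k ∈ K, ∃ c d : F, k = c • (1 : Md 2 F) + d • β := by
    intro k hk
    have hk' : k ∈ Submodule.span F {(1 : Md 2 F), β} := by rw [hspan]; exact hk
    obtain ⟨c, d, h⟩ := Submodule.mem_span_pair.1 hk'
    exact ⟨c, d, h.symm⟩
  obtain ⟨c0, c1, hsq⟩ := hmem (β * β) (K.mul_mem hβK hβK)
  set α : Md 2 F := β - (c1 / 2) • (1 : Md 2 F) with hα
  have hαK : α ∈ K := K.sub_mem hβK (K.smul_mem K.one_mem _)
  have hαsq : α * α = (c0 + (c1 / 2) ^ 2) • (1 : Md 2 F) := by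
    rw [hα]
    simp only [sub_mul, mul_sub, Matrix.smul_mul, Matrix.mul_smul, Matrix.one_mul, Matrix.mul_one,
      hsq, smul_smul]
    match_scalars
    · ring
    · field_simp; ring
  have hα0 : ∀ c : F, α ≠ c • (1 : Md 2 F) := by
    intro c hc
    apply hβ (c + c1 / 2)
    have h3 : β = α + (c1 / 2) • (1 : Md 2 F) := by rw [hα]; abel
    rw [h3, hc, add_smul]
  have ha : c0 + (c1 / 2) ^ 2 ≠ 0 := by
    intro h0
    rw [h0, zero_smul] at hαsq
    have hαne : α ≠ 0 := by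
      intro h; exact hα0 0 (by rw [h, zero_smul])
    obtain ⟨y, hyK, hy⟩ := hK.inv α hαK hαne
    apply hαne
    calc α = α * (α * y) := by rw [hy, mul_one]
      _ = (α * α) * y := by rw [mul_assoc]
      _ = 0 := by rw [hαsq, zero_mul]
  refine ⟨α, hαK, _, ha, hαsq, hα0, ?_⟩
  intro k hk
  obtain ⟨c, d, h⟩ := hmem k hk
  refine ⟨c + d * (c1 / 2), d, ?_⟩
  rw [h, hα]
  module

/-- a nonzero element of the field subalgebra kills no nonzero vector -/
theorem kx_mulVec_ne (K : Subalgebra F (Md 2 F)) (hK : Cfsg.Geo.IsFieldSubalgebra 2 K)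
    (k : Md 2 F) (hk : k ∈ K) (hk0 : k ≠ 0) (v : Vd 2 F) (hv : v ≠ 0) : k *ᵥ v ≠ 0 := by
  obtain ⟨y, hyK, hy⟩ := hK.inv k hk hk0
  intro h
  apply hv
  have h1 : y * k = 1 := by rw [hK.comm y hyK k hk]; exact hy
  calc v = (y * k) *ᵥ v := by rw [h1, Matrix.one_mulVec]
    _ = y *ᵥ (k *ᵥ v) := by rw [Matrix.mulVec_mulVec]
    _ = 0 := by rw [h, Matrix.mulVec_zero]

open Cfsg.Agent.Lib.Helper94 in
/-- the adapted vectors `v₁, v₂` -/
theorem kx_vectors (K : Subalgebra F (Md 2 F)) (hA : Adm 2 2 K) (α : Md 2 F) (hαK : α ∈ K)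
    (hα0 : ∀ c : F, α ≠ c • (1 : Md 2 F)) :
    ∃ v₁ v₂ : Vd 2 F, Cfsg.sympForm 2 F v₁ v₂ = 1 ∧ Cfsg.sympForm 2 F (α *ᵥ v₁) v₂ = 0 := by
  obtain ⟨v₁, hv₁⟩ : ∃ v : Vd 2 F, v ≠ 0 := by
    refine ⟨Pi.single (Sum.inl 0) 1, ?_⟩
    intro h
    have := congrFun h (Sum.inl 0)
    simp at this
  obtain ⟨w, hw⟩ := Cfsg.Agent.Lib.Helper40.exists_sympForm_eq_one 2 v₁ hv₁
  obtain ⟨c, hc⟩ : ∃ c : F, c = Cfsg.sympForm 2 F (α *ᵥ v₁) w := ⟨_, rfl⟩
  have hu' : α *ᵥ v₁ + (-c) • v₁ ≠ 0 := by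
    have h3 : α *ᵥ v₁ + (-c) • v₁ = (α - c • (1 : Md 2 F)) *ᵥ v₁ := by
      rw [Matrix.sub_mulVec, Matrix.smul_mulVec, Matrix.one_mulVec, neg_smul, sub_eq_add_neg]
    rw [h3]
    apply kx_mulVec_ne K hA.fld _ (K.sub_mem hαK (K.smul_mem K.one_mem _)) _ v₁ hv₁
    intro h; exact hα0 c (sub_eq_zero.1 h)
  obtain ⟨w', hw'⟩ := Cfsg.Agent.Lib.Helper40.exists_sympForm_eq_one 2 _ hu'
  obtain ⟨d, hd⟩ : ∃ d : F, d = Cfsg.sympForm 2 F v₁ w' := ⟨_, rfl⟩
  rw [sf_add_left, sf_smul_left, ← hd] at hw'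
  refine ⟨v₁, (1 + c * d) • w + (-c) • w', ?_, ?_⟩
  · rw [sf_add_right, sf_smul_right, sf_smul_right, hw, ← hd]; ring
  · rw [sf_add_right, sf_smul_right, sf_smul_right, ← hc]
    linear_combination (-c) * hw'

theorem kx_gram_entry (b : Fin 2 ⊕ Fin 2 → Vd 2 F) (i j : Fin 2 ⊕ Fin 2) :
    ((Matrix.of fun i j => b j i : Md 2 F)ᵀ * Matrix.J (Fin 2) F *
      (Matrix.of fun i j => b j i : Md 2 F)) i j = Cfsg.sympForm 2 F (b i) (b j) := by
  unfold Cfsg.sympForm
  rw [Matrix.dotProduct_mulVec]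
  simp [Matrix.mul_apply, dotProduct, Matrix.vecMul]

open Cfsg.Agent.Lib.Helper94 in
theorem kx_basis (K : Subalgebra F (Md 2 F)) (hA : Adm 2 2 K) (h2 : (2 : F) ≠ 0) :
    ∃ (a : F) (α B B' : Md 2 F), a ≠ 0 ∧ α ∈ K ∧
      (∀ k ∈ K, ∃ c d : F, k = c • (1 : Md 2 F) + d • α) ∧
      B * B' = 1 ∧ B' * B = 1 ∧ Bᵀ * Matrix.J (Fin 2) F * B = gramM a ∧
      α * B = B * alphaM a := by
  obtain ⟨α, hαK, a, ha, hαsq, hα0, hmem⟩ := kx_alpha K hA.fld h2
  obtain ⟨v₁, v₂, h12, hα12⟩ := kx_vectors K hA α hαK hα0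
  have hsa : ∀ u v : Vd 2 F, Cfsg.sympForm 2 F (α *ᵥ u) v = Cfsg.sympForm 2 F u (α *ᵥ v) :=
    hA.sa α hαK
  have halt : ∀ v : Vd 2 F, Cfsg.sympForm 2 F (α *ᵥ v) v = 0 := hA.alt α hαK
  have hαα : ∀ v : Vd 2 F, α *ᵥ (α *ᵥ v) = a • v := by
    intro v
    rw [Matrix.mulVec_mulVec, hαsq, Matrix.smul_mulVec, Matrix.one_mulVec]
  -- the Gram values
  have e1a1 : Cfsg.sympForm 2 F v₁ (α *ᵥ v₁) = 0 := by rw [sf_swap, halt, neg_zero]
  have e21 : Cfsg.sympForm 2 F v₂ v₁ = -1 := by rw [sf_swap, h12]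
  have e1a2 : Cfsg.sympForm 2 F v₁ (α *ᵥ v₂) = 0 := by rw [← hsa, hα12]
  have ea21 : Cfsg.sympForm 2 F (α *ᵥ v₂) v₁ = 0 := by rw [sf_swap, e1a2, neg_zero]
  have e2a1 : Cfsg.sympForm 2 F v₂ (α *ᵥ v₁) = 0 := by rw [sf_swap, hα12, neg_zero]
  have ea1a2 : Cfsg.sympForm 2 F (α *ᵥ v₁) (α *ᵥ v₂) = a := by
    rw [hsa, hαα, sf_smul_right, h12, mul_one]
  have ea2a1 : Cfsg.sympForm 2 F (α *ᵥ v₂) (α *ᵥ v₁) = -a := by rw [sf_swap, ea1a2]
  have e2a2 : Cfsg.sympForm 2 F v₂ (α *ᵥ v₂) = 0 := by rw [sf_swap, halt, neg_zero]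
  obtain ⟨b, hb⟩ : ∃ b : Fin 2 ⊕ Fin 2 → Vd 2 F,
      b = Sum.elim ![v₁, α *ᵥ v₁] ![v₂, α *ᵥ v₂] := ⟨_, rfl⟩
  have b00 : b (Sum.inl 0) = v₁ := by rw [hb]; rfl
  have b01 : b (Sum.inl 1) = α *ᵥ v₁ := by rw [hb]; rfl
  have b10 : b (Sum.inr 0) = v₂ := by rw [hb]; rfl
  have b11 : b (Sum.inr 1) = α *ᵥ v₂ := by rw [hb]; rfl
  obtain ⟨B, hB⟩ : ∃ B : Md 2 F, B = Matrix.of fun i j => b j i := ⟨_, rfl⟩
  have hgram : Bᵀ * Matrix.J (Fin 2) F * B = gramM a := by
    ext i j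
    rw [hB, kx_gram_entry]
    rcases i with i | i <;> rcases j with j | j <;> fin_cases i <;> fin_cases j <;>
      simp [b00, b01, b10, b11, gramM, dM, sf_self, halt, h12, hα12, e1a1, e21, e1a2, ea21, e2a1,
        ea1a2, ea2a1, e2a2]
  have hαB : α * B = B * alphaM a := by
    have hl : ∀ i j, (α * B) i j = (α *ᵥ b j) i := by
      intro i j; simp [Matrix.mul_apply, Matrix.mulVec, dotProduct, hB]
    have hr : ∀ i j, (B * alphaM a) i j = ∑ k, b k i * alphaM a k j := by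
      intro i j; simp [Matrix.mul_apply, hB]
    ext i j
    rw [hl, hr]
    rcases j with j | j <;> fin_cases j <;>
      simp [Fintype.sum_sum_type, Fin.sum_univ_two, alphaM, aM, b00, b01, b10, b11, hαα, mul_comm]
  have hB'B : (gramInv a * Bᵀ * Matrix.J (Fin 2) F) * B = 1 := by
    rw [mul_assoc, mul_assoc, ← mul_assoc Bᵀ, hgram, gramInv_mul a ha]
  refine ⟨a, α, B, gramInv a * Bᵀ * Matrix.J (Fin 2) F, ha, hαK, hmem,
    mul_eq_one_comm.1 hB'B, hB'B, hgram, hαB⟩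

/-- transport of a fixed matrix `X` of the adapted basis to an element of `N(K) ∩ Sp`. -/
theorem kx_core (K : Subalgebra F (Md 2 F)) (hA : Adm 2 2 K) (h2 : (2 : F) ≠ 0)
    (X X' : Md 2 F) (ε : F) (hX1 : X * X' = 1) (hX2 : X' * X = 1)
    (hG : ∀ a : F, Xᵀ * gramM a * X = gramM a)
    (hA1 : ∀ a : F, X * alphaM a * X' = ε • alphaM a)
    (hA2 : ∀ a : F, X' * alphaM a * X = ε • alphaM a) :
    ∃ (B B' : Md 2 F) (x : GL (Fin 2 ⊕ Fin 2) F), B * B' = 1 ∧ B' * B = 1 ∧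
      (x : Md 2 F) = B * X * B' ∧ x ∈ Cfsg.spGL 2 F ∧ x ∈ Cfsg.Geo.subalgebraNormalizer K := by
  obtain ⟨a, α, B, B', ha, hαK, hmem, hBB', hB'B, hgram, hαB⟩ := kx_basis K hA h2
  have h1 : (B * X * B') * (B * X' * B') = 1 := by
    calc (B * X * B') * (B * X' * B') = B * (X * ((B' * B) * (X' * B'))) := by
          simp only [mul_assoc]
      _ = 1 := by rw [hB'B, one_mul, ← mul_assoc X, hX1, one_mul, hBB']
  have h1' : (B * X' * B') * (B * X * B') = 1 := by
    calc (B * X' * B') * (B * X * B') = B * (X' * ((B' * B) * (X * B'))) := by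
          simp only [mul_assoc]
      _ = 1 := by rw [hB'B, one_mul, ← mul_assoc X', hX2, one_mul, hBB']
  refine ⟨B, B', ⟨B * X * B', B * X' * B', h1, h1'⟩, hBB', hB'B, rfl, ?_, ?_⟩
  · rw [Cfsg.Agent.Lib.Helper94.mem_spGL_iff]
    intro u v
    have hJ : (B * X * B')ᵀ * Matrix.J (Fin 2) F * (B * X * B') = Matrix.J (Fin 2) F := by
      have e1 : B'ᵀ * Bᵀ = 1 := by rw [← Matrix.transpose_mul, hBB', Matrix.transpose_one]
      calc (B * X * B')ᵀ * Matrix.J (Fin 2) F * (B * X * B')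
          = B'ᵀ * (Xᵀ * (Bᵀ * Matrix.J (Fin 2) F * B) * X) * B' := by
            simp only [Matrix.transpose_mul, mul_assoc]
        _ = B'ᵀ * (Bᵀ * Matrix.J (Fin 2) F * B) * B' := by rw [hgram, hG]
        _ = (B'ᵀ * Bᵀ) * Matrix.J (Fin 2) F * (B * B') := by simp only [mul_assoc]
        _ = Matrix.J (Fin 2) F := by rw [e1, hBB', one_mul, mul_one]
    show Cfsg.sympForm 2 F ((B * X * B') *ᵥ u) ((B * X * B') *ᵥ v) = Cfsg.sympForm 2 F u v
    unfold Cfsg.sympForm
    rw [← Matrix.vecMul_transpose, ← Matrix.dotProduct_mulVec, Matrix.mulVec_mulVec,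
      Matrix.mulVec_mulVec, hJ]
  · have hc1 : (B * X * B') * α * (B * X' * B') = ε • α := by
      have e : B' * α * B = alphaM a := by rw [mul_assoc, hαB, ← mul_assoc, hB'B, one_mul]
      calc (B * X * B') * α * (B * X' * B') = B * (X * (B' * α * B) * X') * B' := by
            simp only [mul_assoc]
        _ = B * (ε • alphaM a) * B' := by rw [e, hA1]
        _ = ε • (B * alphaM a * B') := by rw [Matrix.mul_smul, Matrix.smul_mul]
        _ = ε • α := by rw [← hαB, mul_assoc, hBB', mul_one]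
    have hc2 : (B * X' * B') * α * (B * X * B') = ε • α := by
      have e : B' * α * B = alphaM a := by rw [mul_assoc, hαB, ← mul_assoc, hB'B, one_mul]
      calc (B * X' * B') * α * (B * X * B') = B * (X' * (B' * α * B) * X) * B' := by
            simp only [mul_assoc]
        _ = B * (ε • alphaM a) * B' := by rw [e, hA2]
        _ = ε • (B * alphaM a * B') := by rw [Matrix.mul_smul, Matrix.smul_mul]
        _ = ε • α := by rw [← hαB, mul_assoc, hBB', mul_one]
    have key1 : ∀ c d : F, (B * X * B') * (c • (1 : Md 2 F) + d • α) * (B * X' * B') =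
        c • (1 : Md 2 F) + (d * ε) • α := by
      intro c d
      rw [mul_add, add_mul, Matrix.mul_smul, Matrix.smul_mul, mul_one, h1, Matrix.mul_smul,
        Matrix.smul_mul, hc1, smul_smul]
    have key2 : ∀ c d : F, (B * X' * B') * (c • (1 : Md 2 F) + d • α) * (B * X * B') =
        c • (1 : Md 2 F) + (d * ε) • α := by
      intro c d
      rw [mul_add, add_mul, Matrix.mul_smul, Matrix.smul_mul, mul_one, h1', Matrix.mul_smul,
        Matrix.smul_mul, hc2, smul_smul]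
    intro k
    show k ∈ K ↔ (B * X * B') * k * (B * X' * B') ∈ K
    constructor
    · intro hk
      obtain ⟨c, d, rfl⟩ := hmem k hk
      rw [key1]
      exact K.add_mem (K.smul_mem K.one_mem _) (K.smul_mem hαK _)
    · intro hk
      obtain ⟨c, d, hcd⟩ := hmem _ hk
      have hk2 : k = (B * X' * B') * ((B * X * B') * k * (B * X' * B')) * (B * X * B') := by
        calc k = ((B * X' * B') * (B * X * B')) * k * ((B * X' * B') * (B * X * B')) := by
              rw [h1', one_mul, mul_one]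
          _ = _ := by simp only [mul_assoc]
      rw [hk2, hcd, key2]
      exact K.add_mem (K.smul_mem K.one_mem _) (K.smul_mem hαK _)

end

/-- `diag(1, -1)` -/
def eM (F : Type u) [Field F] : Matrix (Fin 2) (Fin 2) F := !![1, 0; 0, -1]
/-- the involution `diag(1,-1,1,-1)` in the adapted basis -/
def pM (F : Type u) [Field F] : Md 2 F := Matrix.fromBlocks (eM F) 0 0 (eM F)

theorem pkgKXM : PkgKXM.{u} := by
  intro F _ _ K hA h2
  have hJJ : Matrix.J (Fin 2) F * Matrix.J (Fin 2) F = -1 := Matrix.J_squared (Fin 2) F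
  obtain ⟨B, B', x, hBB', hB'B, hx, hxs, hxn⟩ := kx_core K hA h2 (Matrix.J (Fin 2) F)
    (-Matrix.J (Fin 2) F) 1 (by rw [mul_neg, hJJ, neg_neg]) (by rw [neg_mul, hJJ, neg_neg])
    (by
      intro a
      simp [Matrix.J, gramM, Matrix.fromBlocks_transpose, Matrix.fromBlocks_multiply])
    (by
      intro a
      simp [Matrix.J, alphaM, Matrix.fromBlocks_multiply, Matrix.fromBlocks_neg])
    (by
      intro a
      simp [Matrix.J, alphaM, Matrix.fromBlocks_multiply, Matrix.fromBlocks_neg])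
  refine ⟨x, hxs, hxn, ?_⟩
  rw [hx]
  calc (B * Matrix.J (Fin 2) F * B') * (B * Matrix.J (Fin 2) F * B')
      = B * (Matrix.J (Fin 2) F * ((B' * B) * (Matrix.J (Fin 2) F * B'))) := by
        simp only [mul_assoc]
    _ = -1 := by rw [hB'B, one_mul, ← mul_assoc (Matrix.J (Fin 2) F), hJJ, neg_mul, one_mul,
        mul_neg, hBB']

theorem pkgKXP : PkgKXP.{u} := by
  intro F _ _ K hA h2
  have hee : eM F * eM F = 1 := by
    ext i j; fin_cases i <;> fin_cases j <;> simp [eM, Matrix.mul_apply, Fin.sum_univ_two]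
  have hpp : pM F * pM F = 1 := by
    unfold pM
    rw [Matrix.fromBlocks_multiply]
    simp [hee, Matrix.fromBlocks_one]
  have het : (eM F)ᵀ = eM F := by
    ext i j; fin_cases i <;> fin_cases j <;> simp [eM]
  have hed : ∀ a : F, eM F * dM a * eM F = dM a := by
    intro a
    ext i j; fin_cases i <;> fin_cases j <;> simp [eM, dM, Matrix.mul_apply, Fin.sum_univ_two]
  have hea : ∀ a : F, eM F * aM a * eM F = -aM a := by
    intro a
    ext i j; fin_cases i <;> fin_cases j <;> simp [eM, aM, Matrix.mul_apply, Fin.sum_univ_two]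
  have hAA : ∀ a : F, pM F * alphaM a * pM F = (-1 : F) • alphaM a := by
    intro a
    unfold pM alphaM
    rw [Matrix.fromBlocks_multiply, Matrix.fromBlocks_multiply, Matrix.fromBlocks_smul]
    simp [hea]
  obtain ⟨B, B', x, hBB', hB'B, hx, hxs, hxn⟩ := kx_core K hA h2 (pM F) (pM F) (-1) hpp hpp
    (by
      intro a
      unfold pM gramM
      rw [Matrix.fromBlocks_transpose, Matrix.fromBlocks_multiply, Matrix.fromBlocks_multiply]
      simp [het, hed])
    hAA hAA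
  have hback : pM F = B' * (B * pM F * B') * B := by
    calc pM F = (B' * B) * pM F * (B' * B) := by rw [hB'B, one_mul, mul_one]
      _ = _ := by simp only [mul_assoc]
  refine ⟨x, hxs, hxn, ?_, ?_, ?_⟩
  · rw [hx]
    calc (B * pM F * B') * (B * pM F * B')
        = B * (pM F * ((B' * B) * (pM F * B'))) := by simp only [mul_assoc]
      _ = 1 := by rw [hB'B, one_mul, ← mul_assoc (pM F), hpp, one_mul, hBB']
  · intro h
    rw [hx] at h
    rw [h, mul_one, hB'B] at hback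
    have := congrFun (congrFun hback (Sum.inl 1)) (Sum.inl 1)
    simp [pM, eM] at this
    apply h2
    linear_combination (-1 : F) * this
  · intro h
    rw [hx] at h
    rw [h, mul_neg, mul_one, neg_mul, hB'B] at hback
    have := congrFun (congrFun hback (Sum.inl 0)) (Sum.inl 0)
    simp [pM, eM] at this
    apply h2
    linear_combination this

example : PkgKXM.{u} := pkgKXM
example : PkgKXP.{u} := pkgKXP

end Cfsg.Agent.Lib.Helper88.FXSP
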